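import Cfsg.Agent.H617.Pb.Defs
import Cfsg.Agent.Blocks.CyclicClasses
import Cfsg.Agent.Blocks.PPart
import Cfsg.Agent.H611.CoverPrincipal
import Cfsg.Agent.Characters.Core

/-!
# S4822, B3b, part A (helper623)

`orb M N ⊤ ≤ eps p M N ⊤ + |Cls P|` if the Sylow subgroup `P` of `G` has order `p` and is contained in `N`.
-/

set_option autoImplicit false
open Cfsg Cfsg.Agent.H617.Pb
open Cfsg.Agent.Blocks.CyclicClasses Cfsg.Agent.Blocks.CyclicOrtho
open Cfsg.Agent.Characters.Core
open Cfsg.Agent.Blocks.Covering (conjIrr conjIrr_apply conjIrr_conjIrr conjIrr_one)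
open Cfsg.Agent.Blocks.PPart

universe u

namespace Cfsg.Agent.H623.Pb

variable {G : Type u} [Group G] [Finite G] {p : ℕ} {M : Ideal AlgInt}

/-- restriction to the `p`-regular elements, as a linear map -/
noncomputable def pR (p : ℕ) (X : Type u) [Group X] : (X → ℂ) →ₗ[ℂ] (X → ℂ) where
  toFun := pRegularPart p
  map_add' a b := by
    funext x
    unfold pRegularPart
    simp only [Pi.add_apply]
    split_ifs <;> simp
  map_smul' r a := by
    funext x
    unfold pRegularPart
    simp only [Pi.smul_apply, RingHom.id_apply]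
    split_ifs <;> simp

theorem pR_pos {X : Type u} [Group X] (f : X → ℂ) {x : X} (hx : IsPRegular p x) : pR p X f x = f x := by
  show pRegularPart p f x = _
  unfold pRegularPart
  rw [if_pos hx]

theorem pR_neg {X : Type u} [Group X] (f : X → ℂ) {x : X} (hx : ¬ IsPRegular p x) : pR p X f x = 0 := by
  show pRegularPart p f x = _
  unfold pRegularPart
  rw [if_neg hx]

/-- the relation defining `orb M N ⊤` -/
def rel (M : Ideal AlgInt) (N : Subgroup G) (θ θ' : ↥(principalBlock M ↥N)) : Prop :=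
  ∃ c ∈ (⊤ : Subgroup G), ∀ x y : ↥N, (y : G) = c * x * c⁻¹ →
    ((θ' : IrrCharacter ↥N) : ↥N → ℂ) y = ((θ : IrrCharacter ↥N) : ↥N → ℂ) x

omit [Finite G] in
theorem orb_eq (N : Subgroup G) : orb M N ⊤ = Nat.card (Quot (rel M N)) := rfl

/-- conjugation on the principal block -/
noncomputable def cj (M : Ideal AlgInt) (N : Subgroup G) [N.Normal] (c : G) (θ : ↥(principalBlock M ↥N)) :
    ↥(principalBlock M ↥N) :=
  ⟨conjIrr N c θ, Cfsg.Agent.H611.CoverPrincipal.conjIrr_mem_principalBlock N c θ.2⟩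

omit [Finite G] in
theorem cj_apply (N : Subgroup G) [N.Normal] (c : G) (θ : ↥(principalBlock M ↥N)) {x y : ↥N}
    (h : (y : G) = c * x * c⁻¹) : ((cj M N c θ : IrrCharacter ↥N) : ↥N → ℂ) x = ((θ : IrrCharacter ↥N) : ↥N → ℂ) y := by
  show (conjIrr N c θ : ↥N → ℂ) x = _
  rw [conjIrr_apply]
  refine congrArg _ (Subtype.ext ?_)
  rw [MulAut.conjNormal_apply, h]

omit [Finite G] in
theorem rel_cj (N : Subgroup G) [N.Normal] (c : G) (θ : ↥(principalBlock M ↥N)) : rel M N θ (cj M N c θ) :=
  ⟨c⁻¹, Subgroup.mem_top _, fun x y h => cj_apply N c θ (by rw [h]; group)⟩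

omit [Finite G] in
theorem rel_iff (N : Subgroup G) [N.Normal] (θ θ' : ↥(principalBlock M ↥N)) :
    rel M N θ θ' ↔ ∃ c : G, θ' = cj M N c θ := by
  constructor
  · rintro ⟨c, -, h⟩
    refine ⟨c⁻¹, Subtype.ext (Subtype.ext (funext fun y => ?_))⟩
    have hN : N.Normal := inferInstance
    have hm : c⁻¹ * (y : G) * c⁻¹⁻¹ ∈ N := hN.conj_mem y y.2 c⁻¹
    rw [cj_apply N c⁻¹ θ (x := y) (y := ⟨_, hm⟩) rfl]
    exact h _ _ (by show (y : G) = c * (c⁻¹ * (y : G) * c⁻¹⁻¹) * c⁻¹; group)
  · rintro ⟨c, rfl⟩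
    exact rel_cj N c θ

omit [Finite G] in
theorem cj_cj (N : Subgroup G) [N.Normal] (c d : G) (θ : ↥(principalBlock M ↥N)) :
    cj M N c (cj M N d θ) = cj M N (d * c) θ := Subtype.ext (conjIrr_conjIrr N c d θ)

omit [Finite G] in
theorem cj_one (N : Subgroup G) [N.Normal] (θ : ↥(principalBlock M ↥N)) : cj M N 1 θ = θ :=
  Subtype.ext (conjIrr_one N θ)

/-- conjugation on the principal block, as a permutation -/
noncomputable def cjE (M : Ideal AlgInt) (N : Subgroup G) [N.Normal] (c : G) : Equiv.Perm ↥(principalBlock M ↥N) where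
  toFun := cj M N c
  invFun := cj M N c⁻¹
  left_inv θ := by rw [cj_cj, mul_inv_cancel, cj_one]
  right_inv θ := by rw [cj_cj, inv_mul_cancel, cj_one]

section
variable (N : Subgroup G)

omit [Finite G] in
/-- the function attached to a function on the orbits -/
noncomputable def FF (M : Ideal AlgInt) [Fintype ↥(principalBlock M ↥N)] : (Quot (rel M N) → ℂ) →ₗ[ℂ] (↥N → ℂ) where
  toFun a := ∑ θ : ↥(principalBlock M ↥N), a (Quot.mk _ θ) • ((θ : IrrCharacter ↥N) : ↥N → ℂ)
  map_add' a b := by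
    rw [← Finset.sum_add_distrib]
    exact Finset.sum_congr rfl fun θ _ => add_smul _ _ _
  map_smul' r a := by
    rw [Finset.smul_sum]
    refine Finset.sum_congr rfl fun θ _ => ?_
    rw [smul_smul]
    rfl

omit [Finite G] in
theorem FF_apply [Fintype ↥(principalBlock M ↥N)] (a : Quot (rel M N) → ℂ) (x : ↥N) :
    FF N M a x = ∑ θ : ↥(principalBlock M ↥N), a (Quot.mk _ θ) * ((θ : IrrCharacter ↥N) : ↥N → ℂ) x := by
  show (∑ θ : ↥(principalBlock M ↥N), a (Quot.mk _ θ) • ((θ : IrrCharacter ↥N) : ↥N → ℂ)) x = _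
  rw [Finset.sum_apply]
  rfl

omit [Finite G] in
theorem FF_inv [N.Normal] [Fintype ↥(principalBlock M ↥N)] (a : Quot (rel M N) → ℂ) (c : G) {x y : ↥N}
    (h : (y : G) = c * x * c⁻¹) : FF N M a y = FF N M a x := by
  rw [FF_apply, FF_apply]
  symm
  rw [← Equiv.sum_comp (cjE M N c)]
  refine Finset.sum_congr rfl fun θ _ => ?_
  have h1 : Quot.mk (rel M N) (cjE M N c θ) = Quot.mk (rel M N) θ := (Quot.sound (rel_cj N c θ)).symm
  have h2 : (((cjE M N c θ : ↥(principalBlock M ↥N)) : IrrCharacter ↥N) : ↥N → ℂ) x =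
      ((θ : IrrCharacter ↥N) : ↥N → ℂ) y := cj_apply N c θ h
  rw [h1, h2]

theorem FF_injective [Fintype ↥(principalBlock M ↥N)] {a : Quot (rel M N) → ℂ} (h : FF N M a = 0) : a = 0 := by
  classical
  funext q
  obtain ⟨θ, rfl⟩ := Quot.exists_rep q
  have hl := irr_linearIndependent (G := ↥N)
  have h2 : LinearIndependent ℂ (fun θ : ↥(principalBlock M ↥N) => ((θ : IrrCharacter ↥N) : ↥N → ℂ)) :=
    hl.comp (fun θ : ↥(principalBlock M ↥N) => (θ : IrrCharacter ↥N)) Subtype.val_injective
  exact (Fintype.linearIndependent_iff.1 h2) (fun θ => a (Quot.mk _ θ)) h θ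

end

/-- **the section formula, for Sylow subgroups of order `p`** -/
theorem orb_le [hp : Fact p.Prime] (hM : IsPModular p M) (N : Subgroup G) [hN : N.Normal] (P : Sylow p G) (hP : Nat.card P = p)
    (hPN : (P : Subgroup G) ≤ N) : orb M N ⊤ ≤ eps p M N ⊤ + Nat.card (Cls P) := by
  classical
  have := Fintype.ofFinite G
  have : Finite (IrrCharacter ↥N) := finite_irr
  have := Fintype.ofFinite ↥(principalBlock M ↥N)
  have hfq : Finite (Quot (rel M N)) := Quot.finite _
  have := Fintype.ofFinite (Quot (rel M N))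
  have := finite_cls P
  have := Fintype.ofFinite (Cls P)
  choose x hx hx1 hxc using fun c : Cls P => c.2
  -- `P` as a Sylow subgroup of `N`
  have hPN' : IsPGroup p ((P : Subgroup G).subgroupOf N) :=
    P.isPGroup'.of_equiv (Subgroup.subgroupOfEquivOfLe hPN).symm
  let Q : Sylow p ↥N := P.subtype hPN
  have hQm : ∀ z : ↥N, z ∈ Q ↔ (z : G) ∈ P := fun z => Iff.rfl
  have hQ : Nat.card Q = p := (Nat.card_congr (Subgroup.subgroupOfEquivOfLe hPN).toEquiv).trans hP
  -- the linear map
  have hInv : ∀ a : Quot (rel M N) → ℂ, pR p ↥N (FF N M a) ∈ Inv p M N ⊤ := by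
    intro a
    refine ⟨?_, ?_⟩
    · show pR p ↥N (∑ θ : ↥(principalBlock M ↥N), a (Quot.mk _ θ) • ((θ : IrrCharacter ↥N) : ↥N → ℂ)) ∈ Br p M N
      rw [map_sum]
      refine Submodule.sum_mem _ fun θ _ => ?_
      rw [map_smul]
      exact Submodule.smul_mem _ _ (Submodule.subset_span ⟨θ, θ.2, rfl⟩)
    · intro c _ z y h
      have ho : orderOf y = orderOf z := by
        rw [← Subgroup.orderOf_coe, ← Subgroup.orderOf_coe, h]
        exact orderOf_injective (MulAut.conj c).toMonoidHom (MulAut.conj c).injective (z : G)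
      by_cases hz : IsPRegular p z
      · have hy : IsPRegular p y := by
          unfold IsPRegular at hz ⊢
          rwa [ho]
        rw [pR_pos _ hy, pR_pos _ hz, FF_inv N a c h]
      · have hy : ¬ IsPRegular p y := by
          unfold IsPRegular at hz ⊢
          rwa [ho]
        rw [pR_neg _ hy, pR_neg _ hz]
  let L : (Quot (rel M N) → ℂ) →ₗ[ℂ] ↥(Inv p M N ⊤) × (Cls P → ℂ) :=
    LinearMap.prod (((pR p ↥N).comp (FF N M)).codRestrict _ hInv)
      (LinearMap.pi fun c => (LinearMap.proj (⟨x c, hPN (hx c)⟩ : ↥N)).comp (FF N M))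
  have hL : Function.Injective L := by
    rw [← LinearMap.ker_eq_bot, LinearMap.ker_eq_bot']
    intro a ha
    have h1 : pR p ↥N (FF N M a) = 0 := congrArg (fun z => ((z.1 : ↥(Inv p M N ⊤)) : ↥N → ℂ)) ha
    have h2 : ∀ c : Cls P, FF N M a ⟨x c, hPN (hx c)⟩ = 0 := fun c => congrFun (congrArg Prod.snd ha) c
    apply FF_injective N
    funext n
    obtain ⟨z, y, hzy, hcomm, ⟨k, hk⟩, hy⟩ := exists_isPPart p n
    by_cases hz1 : z = 1
    · have hn : IsPRegular p n := by
        rw [← hzy, hz1, one_mul]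
        exact hy
      have h3 := congrFun h1 n
      rw [pR_pos _ hn] at h3
      exact h3
    · -- conjugate to an element of `P`
      have hzp : IsPGroup p (Subgroup.zpowers (z : G)) := by
        refine IsPGroup.of_card (n := k) ?_
        rw [Nat.card_zpowers, Subgroup.orderOf_coe, hk]
      obtain ⟨P', hP'⟩ := hzp.exists_le_sylow
      obtain ⟨g, hg⟩ := MulAction.exists_smul_eq G P' P
      have hgz : g * (z : G) * g⁻¹ ∈ P := by
        rw [← hg]
        have h3 : (z : G) ∈ P' := hP' (Subgroup.mem_zpowers _)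
        exact ⟨z, h3, rfl⟩
      have hgz1 : g * (z : G) * g⁻¹ ≠ 1 := by
        intro h3
        apply hz1
        apply Subtype.ext
        have h4 := congrArg (fun w => g⁻¹ * w * g) h3
        simpa [mul_assoc] using h4
      let c : Cls P := ⟨ConjClasses.mk (g * (z : G) * g⁻¹), _, hgz, hgz1, rfl⟩
      have h3 : IsConj (x c) (g * (z : G) * g⁻¹) := ConjClasses.mk_eq_mk_iff_isConj.1 (hxc c)
      obtain ⟨d, hd⟩ := isConj_iff.1 h3
      -- `x c = e z e⁻¹`
      set e : G := d⁻¹ * g with he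
      have hez : e * (z : G) * e⁻¹ = x c := by
        rw [he]
        have : x c = d⁻¹ * (g * (z : G) * g⁻¹) * d := by rw [← hd]; group
        rw [this]
        group
      let y' : ↥N := ⟨e * (y : G) * e⁻¹, hN.conj_mem y y.2 e⟩
      let xc : ↥N := ⟨x c, hPN (hx c)⟩
      have hxy : ((xc * y' : ↥N) : G) = e * (n : G) * e⁻¹ := by
        show x c * (e * (y : G) * e⁻¹) = _
        rw [← hez, ← hzy]
        show _ = e * ((z : G) * (y : G)) * e⁻¹
        group
      rw [← FF_inv N a e hxy]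
      have hcom' : Commute xc y' := by
        have h4 : (z : G) * (y : G) = (y : G) * (z : G) := congrArg Subtype.val hcomm
        apply Subtype.ext
        show x c * (e * (y : G) * e⁻¹) = (e * (y : G) * e⁻¹) * x c
        rw [← hez]
        calc e * (z : G) * e⁻¹ * (e * (y : G) * e⁻¹) = e * ((z : G) * (y : G)) * e⁻¹ := by group
          _ = e * ((y : G) * (z : G)) * e⁻¹ := by rw [h4]
          _ = e * (y : G) * e⁻¹ * (e * (z : G) * e⁻¹) := by group
      have hy' : ¬ p ∣ orderOf y' := by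
        have h4 : orderOf y' = orderOf y := by
          rw [← Subgroup.orderOf_coe, ← Subgroup.orderOf_coe y]
          exact orderOf_injective (MulAut.conj e).toMonoidHom (MulAut.conj e).injective (y : G)
        rwa [h4]
      have hxQ : xc ∈ Q := (hQm xc).2 (hx c)
      have hxc1 : xc ≠ 1 := fun h4 => hx1 c (congrArg Subtype.val h4)
      have h5 : FF N M a (xc * y') = FF N M a xc := by
        rw [FF_apply, FF_apply]
        refine Finset.sum_congr rfl fun θ _ => ?_
        rw [mul_eq Q hQ hM hxQ hxc1 hcom' hy' θ.2]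
      rw [h5]
      exact h2 c
  have h4 := LinearMap.finrank_le_finrank_of_injective hL
  rw [Module.finrank_prod, Module.finrank_fintype_fun_eq_card, Module.finrank_fintype_fun_eq_card] at h4
  rw [orb_eq, Nat.card_eq_fintype_card, Nat.card_eq_fintype_card]
  exact h4

end Cfsg.Agent.H623.Pb
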