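import Cfsg.Agent.H623.Pb.CycA
import Cfsg.Agent.CharDeep.CliffordCorr

/-!
# S4822, B3b, part B (helper623)

* `card_over_mul` : the number of irreducible characters of `G` over an irreducible character `θ` of a normal subgroup
  `K` is at most `|T : K|`, `T` the inertia group of `θ`;
* `k0_add_le` : `k₀(G) + k₀(K) ≤ (|G : K| + 1) orb(K)`.
-/

set_option autoImplicit false
open Cfsg Cfsg.Agent.H617.Pb
open Cfsg.Agent.Characters.Core
open Cfsg.Agent.CharactersDeep.NormalInd
open Cfsg.Agent.Blocks.Covering (conjIrr conjIrr_apply conjIrr_conjIrr conjIrr_one)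
open scoped ComplexConjugate

universe u

namespace Cfsg.Agent.H623.Pb

variable {G : Type u} [Group G]

/-- the norm of the induced character -/
theorem inner_ind [Fintype G] (K : Subgroup G) [hK : K.Normal] [Fintype K] [DecidableEq (IrrCharacter ↥K)]
    (θ : IrrCharacter ↥K) :
    (Nat.card K : ℂ) * classInner (fun n : K => indFun K (θ : ↥K → ℂ) n) (θ : ↥K → ℂ) =
      Nat.card {g : G // conjIrr K g θ = θ} := by
  classical
  have hK0 : (Nat.card K : ℂ) ≠ 0 := Nat.cast_ne_zero.2 Nat.card_pos.ne'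
  have h1 : (fun n : K => indFun K (θ : ↥K → ℂ) n) =
      (Nat.card K : ℂ)⁻¹ • ∑ g : G, ((conjIrr K g θ : IrrCharacter ↥K) : ↥K → ℂ) := by
    funext n
    rw [indFun_coe]
    simp only [Pi.smul_apply, Finset.sum_apply, smul_eq_mul]
    congr 1
    done
  rw [h1, classInner_smul_left, classInner_sum_left, ← mul_assoc, mul_inv_cancel₀ hK0, one_mul]
  have h2 : ∀ g : G, classInner ((conjIrr K g θ : IrrCharacter ↥K) : ↥K → ℂ) (θ : ↥K → ℂ) =
      if conjIrr K g θ = θ then 1 else 0 := by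
    intro g
    rw [classInner_irr (conjIrr K g θ).2 θ.2]
    congr 1
    exact propext ⟨fun h => Subtype.ext h, fun h => congrArg Subtype.val h⟩
  rw [Finset.sum_congr rfl fun g _ => h2 g, Finset.sum_boole, Nat.card_eq_fintype_card, Fintype.card_subtype]

/-- the number of characters over `θ` -/
theorem card_over_mul [Fintype G] (K : Subgroup G) [hK : K.Normal] [Fintype K] (θ : IrrCharacter ↥K) :
    Nat.card {χ : IrrCharacter G // classInner (fun n : K => (χ : G → ℂ) n) (θ : ↥K → ℂ) ≠ 0} * Nat.card K ≤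
      Nat.card {g : G // conjIrr K g θ = θ} := by
  classical
  have := finite_irr (G := G)
  have := Fintype.ofFinite (IrrCharacter G)
  obtain ⟨c, hc, hc2⟩ := Cfsg.Agent.CharDeep.CliffordCorr.exists_nat_coeffs_indFun K (isIrr_isCharacter θ.2)
  have hc3 : ∀ χ : IrrCharacter G, classInner (fun n : K => (χ : G → ℂ) n) (θ : ↥K → ℂ) = c χ := by
    intro χ
    rw [← classInner_conj_symm, hc2, Complex.conj_natCast]
  have h1 : classInner (fun n : K => indFun K (θ : ↥K → ℂ) n) (θ : ↥K → ℂ) = ((∑ χ : IrrCharacter G, c χ * c χ : ℕ) : ℂ) := by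
    have h2 : (fun n : K => indFun K (θ : ↥K → ℂ) n) =
        ∑ χ : IrrCharacter G, (c χ : ℂ) • (fun n : K => (χ : G → ℂ) n) := by
      funext n
      rw [hc]
      simp only [Finset.sum_apply, Pi.smul_apply]
    rw [h2, classInner_sum_left, Nat.cast_sum]
    refine Finset.sum_congr rfl fun χ _ => ?_
    rw [classInner_smul_left, hc3, Nat.cast_mul]
  have h2 := inner_ind K θ
  rw [h1] at h2
  have h3 : Nat.card K * ∑ χ : IrrCharacter G, c χ * c χ = Nat.card {g : G // conjIrr K g θ = θ} := by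
    exact_mod_cast h2
  rw [← h3, mul_comm]
  refine Nat.mul_le_mul_left _ ?_
  have h4 : Nat.card {χ : IrrCharacter G // classInner (fun n : K => (χ : G → ℂ) n) (θ : ↥K → ℂ) ≠ 0} =
      ∑ χ : IrrCharacter G, if c χ ≠ 0 then 1 else 0 := by
    rw [Nat.card_eq_fintype_card, Fintype.card_subtype, Finset.card_filter]
    refine Finset.sum_congr rfl fun χ _ => ?_
    rw [hc3]
    congr 1
    rw [Ne, Nat.cast_eq_zero]
  rw [h4]
  refine Finset.sum_le_sum fun χ _ => ?_
  split_ifs with h
  · exact Nat.mul_pos (Nat.pos_of_ne_zero h) (Nat.pos_of_ne_zero h)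
  · exact Nat.zero_le _

variable {M : Ideal AlgInt}

theorem rel_equiv (K : Subgroup G) [K.Normal] : Equivalence (rel M K) := by
  refine ⟨fun θ => ?_, fun {θ θ'} h => ?_, fun {θ θ' θ''} h h' => ?_⟩
  · exact (rel_iff K θ θ).2 ⟨1, (cj_one K θ).symm⟩
  · obtain ⟨c, rfl⟩ := (rel_iff K _ _).1 h
    exact (rel_iff K _ _).2 ⟨c⁻¹, by rw [cj_cj, mul_inv_cancel, cj_one]⟩
  · obtain ⟨c, rfl⟩ := (rel_iff K _ _).1 h
    obtain ⟨d, rfl⟩ := (rel_iff K _ _).1 h'
    exact (rel_iff K _ _).2 ⟨c * d, cj_cj K d c θ⟩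

theorem mk_eq_iff (K : Subgroup G) [K.Normal] (θ θ' : ↥(principalBlock M ↥K)) :
    Quot.mk (rel M K) θ = Quot.mk (rel M K) θ' ↔ ∃ c : G, θ' = cj M K c θ := by
  rw [(rel_equiv K).quot_mk_eq_iff, rel_iff]

/-- orbit-stabilizer -/
theorem orbit_mul [Finite G] (K : Subgroup G) [K.Normal] (θ : ↥(principalBlock M ↥K)) :
    Nat.card {θ' : ↥(principalBlock M ↥K) // Quot.mk (rel M K) θ' = Quot.mk (rel M K) θ} *
      Nat.card {g : G // conjIrr K g θ = θ} = Nat.card G := by
  classical
  have := Fintype.ofFinite G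
  have : Finite (IrrCharacter ↥K) := finite_irr
  have hfin : Finite {θ' : ↥(principalBlock M ↥K) // Quot.mk (rel M K) θ' = Quot.mk (rel M K) θ} := inferInstance
  have := Fintype.ofFinite {θ' : ↥(principalBlock M ↥K) // Quot.mk (rel M K) θ' = Quot.mk (rel M K) θ}
  let f : G → {θ' : ↥(principalBlock M ↥K) // Quot.mk (rel M K) θ' = Quot.mk (rel M K) θ} := fun g =>
    ⟨cj M K g θ, ((mk_eq_iff K θ (cj M K g θ)).2 ⟨g, rfl⟩).symm⟩
  have hfs : ∀ q : {θ' : ↥(principalBlock M ↥K) // Quot.mk (rel M K) θ' = Quot.mk (rel M K) θ},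
      ∃ g : G, f g = q := by
    rintro ⟨θ', h⟩
    obtain ⟨c, hc⟩ := (mk_eq_iff K θ θ').1 h.symm
    exact ⟨c, Subtype.ext hc.symm⟩
  rw [Nat.card_congr (Equiv.sigmaFiberEquiv f).symm, Nat.card_sigma]
  have h1 : ∀ q : {θ' : ↥(principalBlock M ↥K) // Quot.mk (rel M K) θ' = Quot.mk (rel M K) θ},
      Nat.card {g : G // f g = q} = Nat.card {g : G // conjIrr K g θ = θ} := by
    intro q
    obtain ⟨g, rfl⟩ := hfs q
    have hcj : ∀ h : G, f h = f g ↔ conjIrr K (h * g⁻¹) θ = θ := by
      intro h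
      constructor
      · intro h1
        have h2 : cj M K h θ = cj M K g θ := congrArg Subtype.val h1
        have h3 : cj M K g⁻¹ (cj M K h θ) = cj M K g⁻¹ (cj M K g θ) := by rw [h2]
        rw [cj_cj, cj_cj, mul_inv_cancel, cj_one] at h3
        exact congrArg Subtype.val h3
      · intro h1
        apply Subtype.ext
        have h2 : cj M K (h * g⁻¹) θ = θ := Subtype.ext h1
        show cj M K h θ = cj M K g θ
        conv_rhs => rw [← h2]
        rw [cj_cj, inv_mul_cancel_right]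
    refine Nat.card_congr
      { toFun := fun h => ⟨h.1 * g⁻¹, (hcj h.1).1 h.2⟩
        invFun := fun t => ⟨t.1 * g, (hcj _).2 (by rw [mul_inv_cancel_right]; exact t.2)⟩
        left_inv := fun h => Subtype.ext (inv_mul_cancel_right _ _)
        right_inv := fun t => Subtype.ext (mul_inv_cancel_right _ _) }
  rw [Finset.sum_congr rfl fun q _ => h1 q, Finset.sum_const, smul_eq_mul, Finset.card_univ,
    Nat.card_eq_fintype_card]

theorem conj_over [Fintype G] (K : Subgroup G) [K.Normal] [Fintype K] (χ : IrrCharacter G) (θ : IrrCharacter ↥K) (c : G) :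
    classInner (fun n : K => (χ : G → ℂ) n) (conjIrr K c θ : ↥K → ℂ) =
      classInner (fun n : K => (χ : G → ℂ) n) (θ : ↥K → ℂ) :=
  Cfsg.Agent.Characters.Clifford.classInner_restrict_conjNormal (isIrr_isClassFunction χ.2) (θ : ↥K → ℂ) c

theorem exists_under [Fintype G] (K : Subgroup G) [Fintype K] (χ : IrrCharacter G) :
    ∃ θ : IrrCharacter ↥K, classInner (fun n : K => (χ : G → ℂ) n) (θ : ↥K → ℂ) ≠ 0 := by
  classical
  have := finite_irr (G := ↥K)
  have := Fintype.ofFinite (IrrCharacter ↥K)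
  by_contra hcon
  push Not at hcon
  have hc : IsClassFunction ↥K (fun n : ↥K => (χ : G → ℂ) n) :=
    fun x y => isIrr_isClassFunction χ.2 (x : G) (y : G)
  have h1 := congrFun (classFunction_eq_sum hc) 1
  rw [Finset.sum_apply, Finset.sum_eq_zero fun θ _ => by rw [hcon θ, zero_smul]; rfl] at h1
  exact isIrr_apply_one_ne_zero χ.2 h1

/-- **`k₀(G) + k₀(K) ≤ (|G : K| + 1) orb(K)`** -/
theorem k0_add_le [Finite G] {p : ℕ} [hp : Fact p.Prime] (hM : IsPModular p M) (K : Subgroup G) [hK : K.Normal] :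
    k0 M G + k0 M ↥K ≤ (K.index + 1) * orb M K ⊤ := by
  classical
  have := Fintype.ofFinite G
  have := Fintype.ofFinite ↥K
  have hfG : Finite (IrrCharacter G) := finite_irr
  have hfK : Finite (IrrCharacter ↥K) := finite_irr
  have hfq : Finite (Quot (rel M K)) := Quot.finite _
  have := Fintype.ofFinite (Quot (rel M K))
  -- the map from the characters of `G` to the orbits
  have hex : ∀ χ : ↥(principalBlock M G), ∃ θ : ↥(principalBlock M ↥K),
      classInner (fun n : K => ((χ : IrrCharacter G) : G → ℂ) n) ((θ : IrrCharacter ↥K) : ↥K → ℂ) ≠ 0 := by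
    intro χ
    obtain ⟨θ, hθ⟩ := exists_under K (χ : IrrCharacter G)
    exact ⟨⟨θ, Cfsg.Agent.H611.CoverPrincipal.mem_principalBlock_of_over p hM K χ θ hθ χ.2⟩, hθ⟩
  choose F hF using hex
  have e1 : k0 M G = ∑ q : Quot (rel M K), Nat.card {χ : ↥(principalBlock M G) // Quot.mk (rel M K) (F χ) = q} := by
    unfold k0
    rw [Nat.card_congr (Equiv.sigmaFiberEquiv fun χ : ↥(principalBlock M G) => Quot.mk (rel M K) (F χ)).symm,
      Nat.card_sigma]
  have e2 : k0 M ↥K = ∑ q : Quot (rel M K), Nat.card {θ : ↥(principalBlock M ↥K) // Quot.mk (rel M K) θ = q} := by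
    unfold k0
    rw [Nat.card_congr (Equiv.sigmaFiberEquiv fun θ : ↥(principalBlock M ↥K) => Quot.mk (rel M K) θ).symm,
      Nat.card_sigma]
  rw [e1, e2, ← Finset.sum_add_distrib, orb_eq, Nat.card_eq_fintype_card, mul_comm, ← smul_eq_mul, ← Finset.card_univ,
    ← Finset.sum_const]
  refine Finset.sum_le_sum fun q _ => ?_
  obtain ⟨θ, rfl⟩ := Quot.exists_rep q
  set a := Nat.card {χ : ↥(principalBlock M G) // Quot.mk (rel M K) (F χ) = Quot.mk (rel M K) θ} with ha
  set o := Nat.card {θ' : ↥(principalBlock M ↥K) // Quot.mk (rel M K) θ' = Quot.mk (rel M K) θ} with ho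
  set t := Nat.card {g : G // conjIrr K g (θ : IrrCharacter ↥K) = θ} with ht
  have h1 : o * t = Nat.card G := orbit_mul K θ
  have h2 : a * Nat.card K ≤ t := by
    refine le_trans (Nat.mul_le_mul_right _ ?_) (card_over_mul K (θ : IrrCharacter ↥K))
    rw [ha]
    refine Nat.card_le_card_of_injective
      (fun χ => (⟨(χ : ↥(principalBlock M G)), ?_⟩ : {χ : IrrCharacter G //
        classInner (fun n : K => (χ : G → ℂ) n) ((θ : IrrCharacter ↥K) : ↥K → ℂ) ≠ 0})) ?_
    · obtain ⟨c, hc⟩ := (mk_eq_iff K (F χ.1) θ).1 χ.2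
      have h3 := hF χ.1
      have h4 := conj_over K (χ.1 : IrrCharacter G) (F χ.1 : IrrCharacter ↥K) c
      have h5 : (θ : IrrCharacter ↥K) = conjIrr K c (F χ.1 : IrrCharacter ↥K) := congrArg Subtype.val hc
      rw [h5, h4]
      exact h3
    · intro χ χ' h
      have h3 : (χ.1 : IrrCharacter G) = (χ'.1 : IrrCharacter G) :=
        congrArg (fun z : {χ : IrrCharacter G //
          classInner (fun n : K => (χ : G → ℂ) n) ((θ : IrrCharacter ↥K) : ↥K → ℂ) ≠ 0} => z.1) h
      exact Subtype.ext (Subtype.ext h3)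
  have h3 : Nat.card K ≤ t := by
    rw [ht]
    refine Nat.card_le_card_of_injective (fun n : ↥K => (⟨(n : G), ?_⟩ : {g : G // conjIrr K g (θ : IrrCharacter ↥K) = θ})) ?_
    · apply Subtype.ext
      funext x
      rw [conjIrr_apply]
      have h4 : (MulAut.conjNormal (n : G) x : ↥K) = n * x * n⁻¹ := Subtype.ext (MulAut.conjNormal_apply _ _)
      rw [h4]
      exact isIrr_isClassFunction (θ : IrrCharacter ↥K).2 x n
    · intro n n' h
      exact Subtype.ext (congrArg (fun z => (z : {g : G // conjIrr K g (θ : IrrCharacter ↥K) = θ}).1) h)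
  have h4 : Nat.card K * K.index = Nat.card G := K.card_mul_index
  have hK0 : 0 < Nat.card K := Nat.card_pos
  have h5 : a * o ≤ K.index := by
    have h6 : Nat.card K * (a * o) ≤ Nat.card K * K.index := by
      rw [h4, ← h1]
      calc Nat.card K * (a * o) = o * (a * Nat.card K) := by ring
        _ ≤ o * t := Nat.mul_le_mul_left _ h2
    exact Nat.le_of_mul_le_mul_left h6 hK0
  have h6 : o ≤ K.index := by
    have h7 : Nat.card K * o ≤ Nat.card K * K.index := by
      rw [h4, ← h1, mul_comm]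
      exact Nat.mul_le_mul_left _ h3
    exact Nat.le_of_mul_le_mul_left h7 hK0
  have h7 : 1 ≤ o := by
    rw [ho]
    have : Nonempty {θ' : ↥(principalBlock M ↥K) // Quot.mk (rel M K) θ' = Quot.mk (rel M K) θ} := ⟨⟨θ, rfl⟩⟩
    exact Nat.card_pos
  rcases Nat.eq_zero_or_pos a with h8 | h8
  · omega
  · nlinarith

end Cfsg.Agent.H623.Pb
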